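import Cfsg.Agent.Blocks.Defect.FirstMain
import Mathlib.Algebra.BigOperators.Group.Finset.Basic
import Mathlib.GroupTheory.Nilpotent

/-!
# Cancellation in chains of `p`-subgroups

An alternating sum over chains is zero off the normal chains for a function of the normalizer of
the chain, and, over the chains normalized by a `p`-element `x`, keeps only the chain `⟨x⟩` for a
function of the centralizer of `x` in the normalizer.
-/

set_option autoImplicit false

namespace CfsgLib.Blocks.KLSum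

variable {G : Type*} [Group G] {p : ℕ}

/-- A nonempty chain of nontrivial `p`-subgroups. -/
def IsPChain (p : ℕ) (s : Finset (Subgroup G)) : Prop :=
  s.Nonempty ∧ (∀ Q ∈ s, ∀ R ∈ s, Q ≤ R ∨ R ≤ Q) ∧ ∀ Q ∈ s, Q ≠ ⊥ ∧ IsPGroup p Q

/-- Every member is normal in the largest one. -/
def IsNormalChain (s : Finset (Subgroup G)) : Prop :=
  ∃ T ∈ s, ∀ Q ∈ s, Q ≤ T ∧ T ≤ Subgroup.normalizer ((Q : Subgroup G) : Set G)

/-- The normalizer of a chain. -/
def chainNorm (s : Finset (Subgroup G)) : Subgroup G :=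
  ⨅ Q ∈ s, Subgroup.normalizer ((Q : Subgroup G) : Set G)

theorem mem_chainNorm {s : Finset (Subgroup G)} {g : G} :
    g ∈ chainNorm s ↔ ∀ Q ∈ s, g ∈ Subgroup.normalizer ((Q : Subgroup G) : Set G) := by
  simp [chainNorm, Subgroup.mem_iInf]

/-- The sign of a chain. -/
def chainSign (s : Finset (Subgroup G)) : ℤ := (-1) ^ (s.card - 1)

open scoped Classical in
/-- Inserting or removing a member. -/
noncomputable def toggle (C : Subgroup G) (s : Finset (Subgroup G)) : Finset (Subgroup G) :=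
  if C ∈ s then s.erase C else insert C s

theorem mem_toggle_of_ne {C Q : Subgroup G} {s : Finset (Subgroup G)} (h : Q ≠ C) :
    Q ∈ toggle C s ↔ Q ∈ s := by
  classical
  rw [toggle]
  split_ifs <;> simp [h]

theorem mem_toggle_imp {C Q : Subgroup G} {s : Finset (Subgroup G)} (h : Q ∈ toggle C s) :
    Q = C ∨ Q ∈ s := by
  by_cases hQ : Q = C
  · exact Or.inl hQ
  · exact Or.inr ((mem_toggle_of_ne hQ).mp h)

theorem toggle_toggle (C : Subgroup G) (s : Finset (Subgroup G)) : toggle C (toggle C s) = s := by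
  classical
  unfold toggle
  by_cases h : C ∈ s <;> simp [h]

theorem toggle_ne (C : Subgroup G) (s : Finset (Subgroup G)) : toggle C s ≠ s := by
  classical
  unfold toggle
  split_ifs with h
  · exact fun he => Finset.notMem_erase C s (he.symm ▸ h)
  · exact fun he => h (he ▸ Finset.mem_insert_self C s)

theorem chainSign_toggle (C : Subgroup G) {s : Finset (Subgroup G)}
    (h : ∃ Q ∈ s, Q ≠ C) : chainSign (toggle C s) = -chainSign s := by
  classical
  obtain ⟨Q, hQ, hne⟩ := h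
  unfold chainSign toggle
  split_ifs with hC
  · rw [Finset.card_erase_of_mem hC]
    have : 2 ≤ s.card := Finset.one_lt_card.mpr ⟨Q, hQ, C, hC, hne⟩
    obtain ⟨m, hm⟩ : ∃ m, s.card = m + 2 := ⟨s.card - 2, by omega⟩
    simp [hm, pow_succ]
  · rw [Finset.card_insert_of_notMem hC]
    have : 1 ≤ s.card := Finset.card_pos.mpr ⟨Q, hQ⟩
    rw [show s.card + 1 - 1 = (s.card - 1) + 1 by omega, pow_succ]
    ring

/-- An alternating sum over a family closed under toggling is zero. -/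
theorem sum_eq_zero_of_toggle (A : Finset (Finset (Subgroup G)))
    (C : Finset (Subgroup G) → Subgroup G) (F : Finset (Subgroup G) → ℤ)
    (hmem : ∀ s ∈ A, toggle (C s) s ∈ A) (hC : ∀ s ∈ A, C (toggle (C s) s) = C s)
    (hne : ∀ s ∈ A, ∃ Q ∈ s, Q ≠ C s) (hF : ∀ s ∈ A, F (toggle (C s) s) = F s) :
    ∑ s ∈ A, chainSign s * F s = 0 := by
  refine Finset.sum_involution (fun s _ => toggle (C s) s) (fun s hs => ?_)
    (fun s _ _ => toggle_ne _ _) hmem (fun s hs => ?_)
  · rw [chainSign_toggle _ (hne s hs), hF s hs]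
    ring
  · show toggle (C (toggle (C s) s)) (toggle (C s) s) = s
    rw [hC s hs, toggle_toggle]

/-- A finite chain has a largest member. -/
theorem exists_top {s : Finset (Subgroup G)} (hne : s.Nonempty)
    (hch : ∀ Q ∈ s, ∀ R ∈ s, Q ≤ R ∨ R ≤ Q) : ∃ T ∈ s, ∀ Q ∈ s, Q ≤ T := by
  obtain ⟨T, hT, hmax⟩ := s.exists_maximal hne
  exact ⟨T, hT, fun Q hQ => (hch Q hQ T hT).elim id fun h => hmax hQ h⟩

variable [Finite G]

omit [Finite G] in
/-- The largest member with a property. -/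
theorem exists_last {s : Finset (Subgroup G)} (hch : ∀ Q ∈ s, ∀ R ∈ s, Q ≤ R ∨ R ≤ Q)
    (P : Subgroup G → Prop) (h : ∃ Q ∈ s, P Q) :
    ∃ Q ∈ s, P Q ∧ ∀ R ∈ s, P R → R ≤ Q := by
  classical
  obtain ⟨Q, hQ, hmax⟩ := exists_top (s := s.filter P) (by
    obtain ⟨Q, hQ, hP⟩ := h
    exact ⟨Q, Finset.mem_filter.mpr ⟨hQ, hP⟩⟩)
    fun a ha b hb => hch a (Finset.mem_filter.mp ha).1 b (Finset.mem_filter.mp hb).1
  exact ⟨Q, (Finset.mem_filter.mp hQ).1, (Finset.mem_filter.mp hQ).2,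
    fun R hR hP => hmax R (Finset.mem_filter.mpr ⟨hR, hP⟩)⟩

/-! ### Non-normal chains -/

/-- The least subgroup between `Q` and `T` normalized by `T`. -/
def normalHull (T Q : Subgroup G) : Subgroup G :=
  sInf {X | Q ≤ X ∧ X ≤ T ∧ T ≤ Subgroup.normalizer (X : Set G)}

omit [Finite G] in
theorem le_normalHull (T Q : Subgroup G) : Q ≤ normalHull T Q := le_sInf fun _ hX => hX.1

omit [Finite G] in
theorem normalHull_le {T Q X : Subgroup G} (h₁ : Q ≤ X) (h₂ : X ≤ T)
    (h₃ : T ≤ Subgroup.normalizer (X : Set G)) : normalHull T Q ≤ X := sInf_le ⟨h₁, h₂, h₃⟩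

omit [Finite G] in
theorem le_normalizer_normalHull (T Q : Subgroup G) :
    T ≤ Subgroup.normalizer ((normalHull T Q : Subgroup G) : Set G) := by
  intro t ht
  rw [Subgroup.mem_normalizer_iff]
  intro n
  simp only [normalHull, Subgroup.mem_sInf]
  exact forall₂_congr fun X hX => Subgroup.mem_normalizer_iff.mp (hX.2.2 ht) n

theorem normalHull_mem_normalizer {T Q : Subgroup G} {g : G}
    (hT : g ∈ Subgroup.normalizer (T : Set G)) (hQ : g ∈ Subgroup.normalizer (Q : Set G)) :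
    g ∈ Subgroup.normalizer ((normalHull T Q : Subgroup G) : Set G) := by
  have key : ∀ a : G, a ∈ Subgroup.normalizer (T : Set G) → a ∈ Subgroup.normalizer (Q : Set G) →
      ∀ n ∈ normalHull T Q, a * n * a⁻¹ ∈ normalHull T Q := by
    intro a haT haQ n hn
    simp only [normalHull, Subgroup.mem_sInf] at hn ⊢
    intro X hX
    have hX' : X.map (MulAut.conj a⁻¹).toMonoidHom ∈
        {X | Q ≤ X ∧ X ≤ T ∧ T ≤ Subgroup.normalizer (X : Set G)} := by
      refine ⟨?_, ?_, ?_⟩
      · exact (map_conj_eq_self_of_mem_normalizer (Subgroup.inv_mem _ haQ)).ge.trans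
          (Subgroup.map_mono hX.1)
      · exact (Subgroup.map_mono hX.2.1).trans
          (map_conj_eq_self_of_mem_normalizer (Subgroup.inv_mem _ haT)).le
      · rw [← map_conj_eq_self_of_mem_normalizer (Subgroup.inv_mem _ haT)]
        exact (Subgroup.map_mono hX.2.2).trans (Subgroup.le_normalizer_map _)
    obtain ⟨x, hx, hxn⟩ := hn _ hX'
    simp only [MulEquiv.coe_toMonoidHom, MulAut.conj_apply, inv_inv] at hxn
    rw [← hxn]
    simpa [mul_assoc] using hx
  rw [Subgroup.mem_normalizer_iff]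
  refine fun n => ⟨key g hT hQ n, fun hn => ?_⟩
  have := key g⁻¹ (Subgroup.inv_mem _ hT) (Subgroup.inv_mem _ hQ) _ hn
  simpa [mul_assoc] using this

/-- The hull of a proper subgroup of a `p`-group is proper. -/
theorem normalHull_lt [Fact p.Prime] {T Q : Subgroup G} (hT : IsPGroup p T) (hQT : Q < T) :
    normalHull T Q < T := by
  have : Group.IsNilpotent T := hT.isNilpotent
  have hne : Q.subgroupOf T ≠ ⊤ := fun h => not_le_of_gt hQT (Subgroup.subgroupOf_eq_top.mp h)
  obtain ⟨X, hXc, hXle⟩ := (eq_top_or_exists_le_coatom (Q.subgroupOf T)).resolve_left hne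
  have hXn : X.Normal := Subgroup.NormalizerCondition.normal_of_coatom X
    (Group.normalizerCondition_of_isNilpotent (G := T)) hXc
  have hlt : X.map T.subtype < T := by
    refine lt_of_le_of_ne (Subgroup.map_subtype_le X) fun h => hXc.1 ?_
    rw [← Subgroup.comap_map_eq_self_of_injective T.subtype_injective X, h]
    exact Subgroup.subgroupOf_self T
  refine lt_of_le_of_lt (normalHull_le ?_ hlt.le ?_) hlt
  · intro q hq
    exact ⟨⟨q, hQT.le hq⟩, hXle hq, rfl⟩
  · intro t ht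
    rw [Subgroup.mem_normalizer_iff]
    intro n
    constructor
    · rintro ⟨m, hm, rfl⟩
      exact ⟨⟨t, ht⟩ * m * ⟨t, ht⟩⁻¹, hXn.conj_mem m hm _, rfl⟩
    · rintro ⟨m, hm, hmn⟩
      refine ⟨⟨t, ht⟩⁻¹ * m * ⟨t, ht⟩, by simpa using hXn.conj_mem m hm (⟨t, ht⟩ : T)⁻¹, ?_⟩
      rw [Subgroup.coe_subtype] at hmn
      simp [hmn, mul_assoc]

/-- Data singled out by a chain which is not normal. -/
def IsBreak (s : Finset (Subgroup G)) (TQ : Subgroup G × Subgroup G) : Prop :=
  TQ.1 ∈ s ∧ TQ.2 ∈ s ∧ (∀ R ∈ s, R ≤ TQ.1) ∧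
    ¬ TQ.1 ≤ Subgroup.normalizer (TQ.2 : Set G) ∧
    ∀ R ∈ s, ¬ TQ.1 ≤ Subgroup.normalizer (R : Set G) → R ≤ TQ.2

omit [Finite G] in
theorem exists_break {s : Finset (Subgroup G)} (hs : IsPChain p s) (hn : ¬ IsNormalChain s) :
    ∃ TQ, IsBreak s TQ := by
  obtain ⟨T, hT, hmax⟩ := exists_top hs.1 hs.2.1
  have hex : ∃ Q ∈ s, ¬ T ≤ Subgroup.normalizer ((Q : Subgroup G) : Set G) := by
    by_contra h
    simp only [not_exists, not_and, not_not] at h
    exact hn ⟨T, hT, fun Q hQ => ⟨hmax Q hQ, h Q hQ⟩⟩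
  obtain ⟨Q, hQ, hbad, hlast⟩ := exists_last hs.2.1 _ hex
  exact ⟨(T, Q), hT, hQ, hmax, hbad, hlast⟩

omit [Finite G] in
theorem IsBreak.unique {s : Finset (Subgroup G)} {a b : Subgroup G × Subgroup G}
    (ha : IsBreak s a) (hb : IsBreak s b) : a = b := by
  obtain ⟨h1, h2, h3, h4, h5⟩ := ha
  obtain ⟨k1, k2, k3, k4, k5⟩ := hb
  have hT : a.1 = b.1 := le_antisymm (k3 _ h1) (h3 _ k1)
  exact Prod.ext hT (le_antisymm (k5 _ h2 (hT ▸ h4)) (h5 _ k2 (hT ▸ k4)))

open scoped Classical in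
/-- The alternating sum of a function of the normalizer sees only the normal chains. -/
theorem sum_chains_eq_sum_normal [Fact p.Prime] [Fintype (Finset (Subgroup G))]
    (F : Subgroup G → ℤ) :
    ∑ s ∈ Finset.univ.filter (fun s => IsPChain p s), chainSign s * F (chainNorm s) =
      ∑ s ∈ Finset.univ.filter (fun s => IsPChain p s ∧ IsNormalChain s),
        chainSign s * F (chainNorm s) := by
  rw [← Finset.sum_filter_add_sum_filter_not
    (Finset.univ.filter fun s : Finset (Subgroup G) => IsPChain p s) (fun s => IsNormalChain s),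
    Finset.filter_filter, Finset.filter_filter, add_eq_left]
  let C : Finset (Subgroup G) → Subgroup G := fun s =>
    if h : ∃ TQ, IsBreak s TQ then normalHull h.choose.1 h.choose.2 else ⊥
  have hC : ∀ {s : Finset (Subgroup G)} {TQ}, IsBreak s TQ → C s = normalHull TQ.1 TQ.2 := by
    intro s TQ hTQ
    have h : ∃ TQ, IsBreak s TQ := ⟨TQ, hTQ⟩
    simp only [C, dif_pos h, h.choose_spec.unique hTQ]
  have key : ∀ s ∈ Finset.univ.filter (fun s => IsPChain p s ∧ ¬ IsNormalChain s),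
      ∃ TQ, IsBreak s TQ ∧ TQ.2 ≠ C s ∧ IsBreak (toggle (C s) s) TQ ∧
        IsPChain p (toggle (C s) s) ∧ chainNorm (toggle (C s) s) = chainNorm s := by
    intro s hs
    obtain ⟨hs, hn⟩ := (Finset.mem_filter.mp hs).2
    obtain ⟨⟨T, Q⟩, hbr⟩ := exists_break hs hn
    obtain ⟨hT, hQ, hmax, hbad, hlast⟩ := hbr
    simp only at hT hQ hmax hbad hlast
    set D := normalHull T Q with hD
    rw [hC (⟨hT, hQ, hmax, hbad, hlast⟩ : IsBreak s (T, Q))]
    have hQT : Q < T := lt_of_le_of_ne (hmax Q hQ) fun h => hbad (by rw [h]; exact Subgroup.le_normalizer)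
    have hDT : D < T := normalHull_lt (hs.2.2 T hT).2 hQT
    have hQD : Q ≠ D := fun h => hbad (h.symm ▸ le_normalizer_normalHull T Q)
    have hDQ : Q ≤ D := le_normalHull T Q
    have hcomp : ∀ R ∈ s, R ≤ D ∨ D ≤ R := by
      intro R hR
      rcases hs.2.1 R hR Q hQ with h | h
      · exact Or.inl (h.trans hDQ)
      · rcases h.eq_or_lt with h' | h'
        · exact Or.inl (h' ▸ hDQ)
        · exact Or.inr (normalHull_le h (hmax R hR)
            (by_contra fun hb => not_le_of_gt h' (hlast R hR hb)))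
    have hQ' : Q ∈ toggle D s := (mem_toggle_of_ne hQD).mpr hQ
    have hT' : T ∈ toggle D s := (mem_toggle_of_ne hDT.ne').mpr hT
    refine ⟨(T, Q), ⟨hT, hQ, hmax, hbad, hlast⟩, hQD, ⟨hT', hQ', fun R hR => ?_, hbad, fun R hR hb => ?_⟩,
      ⟨⟨Q, hQ'⟩, fun R hR R' hR' => ?_, fun R hR => ?_⟩, ?_⟩
    · rcases mem_toggle_imp hR with rfl | h
      exacts [hDT.le, hmax R h]
    · rcases mem_toggle_imp hR with rfl | h
      exacts [absurd (le_normalizer_normalHull T Q) hb, hlast R h hb]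
    · rcases mem_toggle_imp hR with rfl | h <;> rcases mem_toggle_imp hR' with rfl | h'
      exacts [Or.inl le_rfl, (hcomp R' h').symm, hcomp R h, hs.2.1 R h R' h']
    · rcases mem_toggle_imp hR with rfl | h
      · exact ⟨fun h0 => (hs.2.2 Q hQ).1 (le_bot_iff.mp (h0 ▸ hDQ)),
          (hs.2.2 T hT).2.to_le hDT.le⟩
      · exact hs.2.2 R h
    · refine le_antisymm (fun g hg => ?_) (fun g hg => ?_) <;> rw [mem_chainNorm] at hg ⊢ <;>
        intro R hR
      · by_cases hRD : R = D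
        · subst hRD
          exact normalHull_mem_normalizer (hg T hT') (hg Q hQ')
        · exact hg R ((mem_toggle_of_ne hRD).mpr hR)
      · rcases mem_toggle_imp hR with rfl | h
        exacts [normalHull_mem_normalizer (hg T hT) (hg Q hQ), hg R h]
  refine sum_eq_zero_of_toggle _ C (fun s => F (chainNorm s)) (fun s hs => ?_) (fun s hs => ?_)
    (fun s hs => ?_) fun s hs => ?_
  · obtain ⟨TQ, -, -, hbr, hch, -⟩ := key s hs
    refine Finset.mem_filter.mpr ⟨Finset.mem_univ _, hch, ?_⟩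
    rintro ⟨T', hT', h⟩
    have hT : T' = TQ.1 := le_antisymm (hbr.2.2.1 T' hT') (h _ hbr.1).1
    exact hbr.2.2.2.1 (hT ▸ (h _ hbr.2.1).2)
  · obtain ⟨TQ, hbr, -, hbr', -, -⟩ := key s hs
    rw [hC hbr', hC hbr]
  · obtain ⟨TQ, hbr, hne, -, -, -⟩ := key s hs
    exact ⟨TQ.2, hbr.2.1, hne⟩
  · obtain ⟨TQ, -, -, -, -, hnorm⟩ := key s hs
    rw [hnorm]

/-! ### Chains normalized by a `p`-element -/

open scoped Classical in
/-- Among the chains normalized by a nontrivial `p`-element only its cyclic group counts. -/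
theorem sum_chains_fixed [Fact p.Prime] [Fintype (Finset (Subgroup G))] (F : Subgroup G → ℤ)
    {x : G} (hx : ∃ e : ℕ, orderOf x = p ^ e) (hx1 : x ≠ 1) :
    ∑ s ∈ Finset.univ.filter (fun s => IsPChain p s ∧ x ∈ chainNorm s),
        chainSign s * F (chainNorm s ⊓ Subgroup.centralizer ({x} : Set G)) =
      F (Subgroup.centralizer ({x} : Set G)) := by
  set Z := Subgroup.zpowers x with hZ
  have hxZ : x ∈ Z := Subgroup.mem_zpowers x
  have hZp : IsPGroup p Z := by
    obtain ⟨e, he⟩ := hx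
    exact IsPGroup.of_card (n := e) (by rw [hZ, Nat.card_zpowers, he])
  have hZne : Z ≠ ⊥ := fun h => hx1 (Subgroup.zpowers_eq_bot.mp h)
  have hCZ : ∀ g ∈ Subgroup.centralizer ({x} : Set G), g ∈ Subgroup.normalizer (Z : Set G) := by
    intro g hg
    refine Subgroup.centralizer_le_normalizer _ ?_
    rw [hZ, Subgroup.zpowers_eq_closure, Subgroup.centralizer_closure]
    exact hg
  have hxnorm : x ∈ Subgroup.normalizer (Z : Set G) :=
    hCZ x (Subgroup.mem_centralizer_singleton_iff.mpr rfl)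
  have hsingle : chainNorm ({Z} : Finset (Subgroup G)) = Subgroup.normalizer (Z : Set G) := by
    ext g; simp [mem_chainNorm]
  have hmem : ({Z} : Finset (Subgroup G)) ∈
      Finset.univ.filter (fun s => IsPChain p s ∧ x ∈ chainNorm s) := by
    refine Finset.mem_filter.mpr ⟨Finset.mem_univ _, ⟨Finset.singleton_nonempty Z, ?_, ?_⟩, ?_⟩
    · intro Q hQ R hR
      simp only [Finset.mem_singleton] at hQ hR
      exact Or.inl (hQ.trans hR.symm).le
    · intro Q hQ
      rw [Finset.mem_singleton] at hQ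
      subst hQ
      exact ⟨hZne, hZp⟩
    · rw [hsingle]; exact hxnorm
  rw [← Finset.add_sum_erase _ _ hmem, show chainSign ({Z} : Finset (Subgroup G)) = 1 by
    simp [chainSign], one_mul, hsingle, inf_eq_right.mpr hCZ, add_eq_left]
  let C : Finset (Subgroup G) → Subgroup G := fun s =>
    if h : ∃ Q ∈ s, x ∉ Q ∧ ∀ R ∈ s, x ∉ R → R ≤ Q then h.choose ⊔ Z else Z
  have hC0 : ∀ {s : Finset (Subgroup G)}, (∀ Q ∈ s, x ∈ Q) → C s = Z := by
    intro s h
    refine dif_neg ?_
    rintro ⟨Q, hQ, hxQ, -⟩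
    exact hxQ (h Q hQ)
  have hC1 : ∀ {s : Finset (Subgroup G)} {Q}, Q ∈ s → x ∉ Q → (∀ R ∈ s, x ∉ R → R ≤ Q) →
      C s = Q ⊔ Z := by
    intro s Q h1 h2 h3
    have h : ∃ Q ∈ s, x ∉ Q ∧ ∀ R ∈ s, x ∉ R → R ≤ Q := ⟨Q, h1, h2, h3⟩
    simp only [C, dif_pos h]
    rw [le_antisymm (h3 _ h.choose_spec.1 h.choose_spec.2.1) (h.choose_spec.2.2 Q h1 h2)]
  have key : ∀ s ∈ (Finset.univ.filter (fun s => IsPChain p s ∧ x ∈ chainNorm s)).erase {Z},
      IsPChain p (toggle (C s) s) ∧ x ∈ chainNorm (toggle (C s) s) ∧ toggle (C s) s ≠ {Z} ∧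
        C (toggle (C s) s) = C s ∧ (∃ Q ∈ s, Q ≠ C s) ∧
        chainNorm (toggle (C s) s) ⊓ Subgroup.centralizer ({x} : Set G) =
          chainNorm s ⊓ Subgroup.centralizer ({x} : Set G) := by
    intro s hs
    obtain ⟨hsZ, hs⟩ := Finset.mem_erase.mp hs
    obtain ⟨hs, hxs⟩ := (Finset.mem_filter.mp hs).2
    -- the common shape of the two cases
    suffices h : ∃ D R₀, C s = D ∧ C (toggle D s) = D ∧ R₀ ∈ s ∧ R₀ ≠ D ∧ R₀ ≠ Z ∧ D ≠ ⊥ ∧
        IsPGroup p D ∧ (∀ R ∈ s, R ≤ D ∨ D ≤ R) ∧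
        ∀ g ∈ Subgroup.centralizer ({x} : Set G),
          g ∈ Subgroup.normalizer (R₀ : Set G) → g ∈ Subgroup.normalizer (D : Set G) by
      obtain ⟨D, R₀, hD, hCC, hR₀, hR₀D, hR₀Z, hDne, hDp, hcomp, hnorm⟩ := h
      rw [hD]
      have hR₀' : R₀ ∈ toggle D s := (mem_toggle_of_ne hR₀D).mpr hR₀
      have hxD : x ∈ Subgroup.normalizer (D : Set G) :=
        hnorm x (Subgroup.mem_centralizer_singleton_iff.mpr rfl) (mem_chainNorm.mp hxs R₀ hR₀)
      refine ⟨⟨⟨R₀, hR₀'⟩, fun R hR R' hR' => ?_, fun R hR => ?_⟩, ?_, fun h => hR₀Z ?_, hCC,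
        ⟨R₀, hR₀, hR₀D⟩, ?_⟩
      · rcases mem_toggle_imp hR with rfl | h <;> rcases mem_toggle_imp hR' with rfl | h'
        exacts [Or.inl le_rfl, (hcomp R' h').symm, hcomp R h, hs.2.1 R h R' h']
      · rcases mem_toggle_imp hR with rfl | h
        exacts [⟨hDne, hDp⟩, hs.2.2 R h]
      · rw [mem_chainNorm]
        intro R hR
        rcases mem_toggle_imp hR with rfl | h
        exacts [hxD, mem_chainNorm.mp hxs R h]
      · rw [h] at hR₀'
        exact Finset.mem_singleton.mp hR₀'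
      · refine le_antisymm (fun g hg => ⟨?_, hg.2⟩) (fun g hg => ⟨?_, hg.2⟩) <;>
          have hg1 := mem_chainNorm.mp hg.1 <;> refine mem_chainNorm.mpr fun R hR => ?_
        · rcases mem_toggle_imp hR with rfl | h
          exacts [hnorm g hg.2 (hg1 R₀ hR₀), hg1 R h]
        · by_cases hRD : R = D
          · subst hRD
            exact hnorm g hg.2 (hg1 R₀ hR₀')
          · exact hg1 R ((mem_toggle_of_ne hRD).mpr hR)
    by_cases hall : ∀ Q ∈ s, x ∈ Q
    · obtain ⟨R₀, hR₀, hR₀Z⟩ : ∃ R ∈ s, R ≠ Z := by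
        by_contra h
        simp only [not_exists, not_and, not_not] at h
        exact hsZ (Finset.eq_singleton_iff_nonempty_unique_mem.mpr ⟨hs.1, h⟩)
      refine ⟨Z, R₀, hC0 hall, hC0 fun Q hQ => ?_, hR₀, hR₀Z, hR₀Z, hZne, hZp,
        fun R hR => Or.inr (Subgroup.zpowers_le.mpr (hall R hR)), fun g hg _ => hCZ g hg⟩
      rcases mem_toggle_imp hQ with rfl | h
      exacts [hxZ, hall Q h]
    · simp only [not_forall] at hall
      obtain ⟨Q₀, hQ₀, hxQ₀⟩ := hall
      obtain ⟨Q, hQ, hxQ, hlast⟩ := exists_last hs.2.1 (fun R => x ∉ R) ⟨Q₀, hQ₀, hxQ₀⟩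
      have hQD : Q ≠ Q ⊔ Z := fun h => hxQ (h.symm ▸ Subgroup.mem_sup_right hxZ)
      refine ⟨Q ⊔ Z, Q, hC1 hQ hxQ hlast, hC1 ((mem_toggle_of_ne hQD).mpr hQ) hxQ ?_, hQ, hQD,
        fun h => hxQ (h ▸ hxZ), fun h => (hs.2.2 Q hQ).1 (le_bot_iff.mp (h ▸ le_sup_left)), ?_, ?_,
        fun g hg hgQ => ?_⟩
      · intro R hR hxR
        rcases mem_toggle_imp hR with rfl | h
        exacts [absurd (Subgroup.mem_sup_right hxZ) hxR, hlast R h hxR]
      · exact IsPGroup.to_sup_of_normal_left' (hs.2.2 Q hQ).2 hZp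
          (Subgroup.zpowers_le.mpr (mem_chainNorm.mp hxs Q hQ))
      · intro R hR
        rcases hs.2.1 R hR Q hQ with h | h
        · exact Or.inl (h.trans le_sup_left)
        · rcases h.eq_or_lt with h' | h'
          · exact Or.inl (h' ▸ le_sup_left)
          · exact Or.inr (sup_le h (Subgroup.zpowers_le.mpr
              (by_contra fun hb => not_le_of_gt h' (hlast R hR hb))))
      · have key' : ∀ a : G, a ∈ Subgroup.normalizer (Q : Set G) →
            a ∈ Subgroup.normalizer (Z : Set G) →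
            (Q ⊔ Z).map (MulAut.conj a).toMonoidHom = Q ⊔ Z := fun a ha haZ => by
          rw [Subgroup.map_sup, map_conj_eq_self_of_mem_normalizer ha,
            map_conj_eq_self_of_mem_normalizer haZ]
        exact mem_normalizer_of_map_conj_le (key' g hgQ (hCZ g hg)).le
  refine sum_eq_zero_of_toggle _ C
    (fun s => F (chainNorm s ⊓ Subgroup.centralizer ({x} : Set G)))
    (fun s hs => ?_) (fun s hs => (key s hs).2.2.2.1) (fun s hs => (key s hs).2.2.2.2.1)
    fun s hs => by rw [(key s hs).2.2.2.2.2]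
  exact Finset.mem_erase.mpr ⟨(key s hs).2.2.1,
    Finset.mem_filter.mpr ⟨Finset.mem_univ _, (key s hs).1, (key s hs).2.1⟩⟩

end CfsgLib.Blocks.KLSum
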